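import Cfsg.Agent.M24Orbits.IndexSub23

/-!
Subgroups of `M24` of index 759, 1771, 276 and 253.
-/

set_option autoImplicit false

open scoped Pointwise

namespace CfsgLib.M24Orbits

open Cfsg CfsgLib.Golay CfsgLib.Mathieu

theorem octad_or_transitive {K : Subgroup (Equiv.Perm GolayPt)} (hK : K ≤ M24)
    (h : 1024 ∣ Nat.card K) :
    (∃ O ∈ octads, K ≤ stabM O) ∨ ∀ a b, ∃ g ∈ K, g a = b := by
  obtain ⟨O, hO, t1, t2⟩ := exists_parts_M24 hK h
  by_cases hinv : ∀ g ∈ K, g • O = O
  · exact Or.inl ⟨O, hO, fun g hg => mem_stabM_iff.2 ⟨hK hg, hinv g hg⟩⟩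
  refine Or.inr ?_
  obtain ⟨g₀, hg₀, a, ha, hga⟩ : ∃ g ∈ K, ∃ a ∈ O, g a ∉ O := by
    by_contra! hall
    exact hinv fun g hg => smul_eq_of_forall_mem (hall g hg)
  have huniv : ∀ b, b ∈ orbFin K a := fun b => by
    by_cases hb : b ∈ O
    · obtain ⟨g, hg, rfl⟩ := t1 a ha b hb
      exact mem_orbFin.2 ⟨g, hg, rfl⟩
    · obtain ⟨g, hg, rfl⟩ := t2 _ (Finset.mem_compl.2 hga) b (Finset.mem_compl.2 hb)
      exact mem_orbFin.2 ⟨g * g₀, K.mul_mem hg hg₀, rfl⟩
  intro b c
  obtain ⟨u, hu, rfl⟩ := mem_orbFin.1 (huniv b)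
  obtain ⟨v, hv, rfl⟩ := mem_orbFin.1 (huniv c)
  exact ⟨v * u⁻¹, K.mul_mem hv (K.inv_mem hu), by simp⟩

theorem card_transitive {K : Subgroup (Equiv.Perm GolayPt)}
    (h : ∀ a b, ∃ g ∈ K, g a = b) (x : GolayPt) :
    Nat.card K = 24 * Nat.card (fixPt K x) := by
  have e : orbFin K x = Finset.univ :=
    Finset.eq_univ_iff_forall.2 fun b => mem_orbFin.2 (h x b)
  rw [card_orbFin_mul K x, e]
  rfl

theorem conj_apply_smul {g m : Equiv.Perm GolayPt} {p : GolayPt} (h : m (g p) = g p) :
    (g⁻¹ * m * g) p = p := by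
  simp only [Equiv.Perm.mul_apply, h, Equiv.Perm.coe_inv, Equiv.symm_apply_apply]

/-- Subgroups of index 759. -/
theorem classify_759 {K : Subgroup (Equiv.Perm GolayPt)} (hK : K ≤ M24)
    (hcard : Nat.card K = 322560) : ∃ o ∈ octads, K = stabM o := by
  rcases octad_or_transitive hK (hcard ▸ by norm_num) with ⟨O, hO, hle⟩ | htr
  · exact ⟨O, hO, Subgroup.eq_of_le_of_card_ge hle (by rw [card_stab_octad hO, hcard])⟩
  exfalso
  set x := i2p 0
  set K₁ := fixPt K x with hK₁
  have hc1 : Nat.card K₁ = 13440 := by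
    have : Nat.card K = 24 * Nat.card K₁ := card_transitive htr x
    rw [hcard] at this
    omega
  have hle1 : K₁ ≤ fixPt M24 x := fun g hg => ⟨hK hg.1, hg.2⟩
  obtain ⟨y, A, B, O, h⟩ := exists_parts23 hle1 (hc1 ▸ by norm_num)
  have hdvd := dvd_of_orbFin K₁ y
  rw [hc1] at hdvd
  rcases h.orb_cases hle1 with e | e | e | ⟨-, hinv⟩ | e | e | ⟨-, hinv⟩ | e
  · obtain ⟨N, hN, hN', hN''⟩ := sylow_seven_count h.hxy
      (fun g hg => ⟨hle1 hg, forall_fixed_of_orbFin e g hg⟩) (hc1 ▸ by norm_num)
    rw [hc1] at hN''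
    rcases hN with rfl | rfl <;> omega
  · have := (h.small_bound hle1).1 e; omega
  · have := (h.small_bound hle1).2 e; omega
  · obtain ⟨z, hz⟩ : ∃ z, z ∉ O := by
      by_contra! hall
      have := h.hO.2
      rw [Finset.eq_univ_iff_forall.2 hall] at this
      exact absurd this (by decide)
    have horb : orbFin K₁ z = Oᶜ := by
      refine Finset.Subset.antisymm (fun w hw => ?_) fun w hw => ?_
      · obtain ⟨g, hg, rfl⟩ := mem_orbFin.1 hw
        exact Finset.mem_compl.2 fun hgz => hz (apply_eq_of_smul_mem (hinv g hg) hgz)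
      · obtain ⟨g, hg, rfl⟩ := h.tC z (Finset.mem_compl.2 hz) w hw
        exact mem_orbFin.2 ⟨g, hg, rfl⟩
    have hc2 := card_orbFin_mul K₁ z
    rw [hc1, horb, Finset.card_compl, h.hO.2, show Fintype.card GolayPt = 24 from rfl] at hc2
    have hmem : ∀ g ∈ fixPt K₁ z, ∀ w, w ∈ O.erase x ↔ g w ∈ O.erase x := by
      intro g hg w
      have hgx : g x = x := (hle1 hg.1).2
      have hgO := hinv g hg.1
      constructor
      · intro hw
        obtain ⟨hw1, hw2⟩ := Finset.mem_erase.1 hw
        exact Finset.mem_erase.2 ⟨fun e => hw1 (g.injective (e.trans hgx.symm)),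
          apply_mem_of_smul_eq hgO hw2⟩
      · intro hw
        obtain ⟨hw1, hw2⟩ := Finset.mem_erase.1 hw
        exact Finset.mem_erase.2 ⟨fun e => hw1 (e ▸ hgx), apply_eq_of_smul_mem hgO hw2⟩
    let f : ↥(fixPt K₁ z) →* Equiv.Perm {w // w ∈ O.erase x} :=
      { toFun := fun g => (g : Equiv.Perm GolayPt).subtypePerm fun w => (hmem g g.2 w).symm
        map_one' := Equiv.ext fun _ => rfl
        map_mul' := fun _ _ => Equiv.ext fun _ => rfl }
    have hinj : Function.Injective f := by
      rw [injective_iff_map_eq_one]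
      intro g hg
      apply Subtype.ext
      refine eq_one_of_nine_fixed (hle1 g.2.1).1 ?_
      have hsub : insert z O ⊆ fixedPts (g : Equiv.Perm GolayPt) := by
        intro w hw
        rw [mem_fixedPts]
        rcases Finset.mem_insert.1 hw with rfl | hw
        · exact g.2.2
        · by_cases hwx : w = x
          · exact hwx.symm ▸ (hle1 g.2.1).2
          · exact congrArg Subtype.val
              (Equiv.Perm.congr_fun hg ⟨w, Finset.mem_erase.2 ⟨hwx, hw⟩⟩)
      have := Finset.card_le_card hsub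
      rw [Finset.card_insert_of_notMem hz, h.hO.2] at this
      exact this
    refine not_card_840 ?_ f.range ?_
    · rw [Fintype.card_coe, Finset.card_erase_of_mem h.x_mem, h.hO.2]
    · rw [← Nat.card_congr (MonoidHom.ofInjective hinj).toEquiv]
      omega
  · rw [e] at hdvd; norm_num at hdvd
  · rw [e] at hdvd; norm_num at hdvd
  · obtain ⟨a, b, hab, rfl⟩ := Finset.card_eq_two.1 h.cA
    have hxa : x ≠ a := fun e => h.hxA (by rw [e]; simp)
    have hxb : x ≠ b := fun e => h.hxA (by rw [e]; simp)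
    set M := K₁ ⊓ fixingSubgroup (Equiv.Perm GolayPt) (({a, b} : Finset GolayPt) : Set GolayPt)
      with hM
    have hb := card_le_of_preserves (m := Nat.card M) hinv le_rfl
    rw [hc1, Finset.card_pair hab] at hb
    set T := fixPt (fixPt (fixPt M24 x) a) b with hT
    have hMT : M ≤ T := fun g hg =>
      ⟨⟨hle1 hg.1, inf_fixing_apply hg (by simp)⟩, inf_fixing_apply hg (by simp)⟩
    have hTc : Nat.card T = 20160 := card_fixTriple hxa hxb hab
    haveI := isSimpleGroup_fixTriple hxa hxb hab
    have hidx := Subgroup.card_mul_index (M.subgroupOf T)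
    rw [Nat.card_congr (Subgroup.subgroupOfEquivOfLe hMT).toEquiv, hTc] at hidx
    have hfac : Nat.factorial 2 = 2 := rfl
    rw [hfac] at hb
    have h3 : (M.subgroupOf T).index ≤ 7 := by
      by_contra hlt
      have := Nat.mul_le_mul (show 6720 ≤ Nat.card M by omega)
        (show 8 ≤ (M.subgroupOf T).index by omega)
      omega
    have htop := eq_top_of_index_le_seven (G := T) (by rw [hTc]; norm_num) (M.subgroupOf T) h3
    rw [Subgroup.subgroupOf_eq_top] at htop
    have := Subgroup.card_le_of_le (htop.trans (inf_le_left : M ≤ K₁))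
    omega
  · rw [e] at hdvd; norm_num at hdvd

theorem exists_map_swap {S : Finset GolayPt} (hS : S.card ≤ 5) (a b : GolayPt) :
    ∃ m ∈ M24, ∀ q ∈ S, m q = Equiv.swap a b q := by
  let e : Fin S.card → GolayPt := fun i => S.equivFin.symm i
  have he : Function.Injective e := Subtype.val_injective.comp S.equivFin.symm.injective
  obtain ⟨m, hm, h⟩ := exists_map_tuple_list hS (x := e) (y := Equiv.swap a b ∘ e) he
    ((Equiv.swap a b).injective.comp he)
  refine ⟨m, hm, fun q hq => ?_⟩
  simpa [e] using h (S.equivFin ⟨q, hq⟩)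

theorem smul_sextetOf_eq {g : Equiv.Perm GolayPt} (hg : g ∈ M24) {t : Finset GolayPt}
    (ht : t.card = 4) (h : g • t ∈ sextetOf t) : g • sextetOf t = sextetOf t := by
  exact (eq_sextetOf (smul_mem_sextets hg (sextetOf_mem_sextets ht))
    (Finset.smul_mem_smul_finset self_mem_sextetOf)).trans
    (eq_sextetOf (sextetOf_mem_sextets ht) h).symm

/-- The case of an orbit of length three. -/
theorem classify_1771_three {K : Subgroup (Equiv.Perm GolayPt)} (hK : K ≤ M24)
    (hcard : Nat.card K = 138240) (htr : ∀ a b, ∃ g ∈ K, g a = b) {x : GolayPt}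
    {U : Finset GolayPt} (hU : U.card = 3) (hxU : x ∉ U)
    (hinv : ∀ g ∈ fixPt K x, g • U = U) : ∃ S ∈ sextets, K = stabM S := by
  classical
  set t := insert x U with ht
  have htc : t.card = 4 := by rw [ht, Finset.card_insert_of_notMem hxU, hU]
  have hxt : x ∈ t := Finset.mem_insert_self x U
  have hinvt : ∀ g ∈ fixPt K x, g • t = t := by
    intro g hg
    rw [ht, Finset.smul_finset_insert, hinv g hg, Equiv.Perm.smul_def,
      show g x = x from hg.2]
  have hc1 : Nat.card (fixPt K x) = 5760 := by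
    have := card_transitive htr x
    rw [hcard] at this
    omega
  -- the point stabiliser is that of the tetrad
  have hsub : fixPt (stabM t) x ≤ K := by
    have hle : fixPt K x ≤ fixPt (stabM t) x :=
      fun g hg => ⟨mem_stabM_iff.2 ⟨hK hg.1, hinvt g hg⟩, hg.2⟩
    have hb : Nat.card (fixPt (stabM t) x) ≤ Nat.card (fixPt K x) := by
      rw [hc1]
      refine (card_le_of_preserves (U := U) (m := 960) (fun g hg => ?_) ?_).trans (by rw [hU]; rfl)
      rotate_left
      · refine card_fix_four (fun g hg => hg.1.1.1) htc fun g hg u hu => ?_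
        rcases Finset.mem_insert.1 hu with rfl | hu
        · exact hg.1.2
        · exact inf_fixing_apply hg hu
      · refine smul_eq_of_forall_mem fun u hu => ?_
        have h1 := apply_mem_of_smul_eq (smul_eq_self hg.1) (Finset.mem_insert_of_mem (b := x) hu)
        exact (Finset.mem_insert.1 h1).resolve_left
          fun e => hxU (g.injective (e.trans hg.2.symm) ▸ hu)
    exact (Subgroup.eq_of_le_of_card_ge hle hb).symm.le.trans inf_le_left
  -- the tetrad of the image of `x`
  have hpres : ∀ g ∈ K, ∀ m ∈ K, m (g x) = g x → m • (g • t) = g • t := by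
    intro g hg m hm hmx
    have := hinvt (g⁻¹ * m * g) ⟨K.mul_mem (K.mul_mem (K.inv_mem hg) hm) hg, conj_apply_smul hmx⟩
    rwa [mul_smul, mul_smul, inv_smul_eq_iff] at this
  have hfixK : ∀ m ∈ M24, (∀ q ∈ t, m q = q) → m ∈ K := fun m hm hq =>
    hsub ⟨mem_stabM_iff.2 ⟨hm, smul_eq_of_forall_mem fun q h => by rw [hq q h]; exact h⟩, hq x hxt⟩
  have hin : ∀ g ∈ K, g x ∈ t → g • t = t := by
    intro g hg hgx
    refine Finset.eq_of_subset_of_card_le (fun z hz => ?_) (by rw [Finset.card_smul_finset])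
    by_contra hzt
    have hsubT : tᶜ ⊆ g • t := fun w hw => by
      obtain ⟨m, hm, hmfix, rfl⟩ := exists_fix_move htc.le hzt (Finset.mem_compl.1 hw)
      exact apply_mem_of_smul_eq (hpres g hg m (hfixK m hm hmfix) (hmfix _ hgx)) hz
    have := Finset.card_le_card hsubT
    rw [Finset.card_compl, Finset.card_smul_finset, htc,
      show Fintype.card GolayPt = 24 from rfl] at this
    omega
  have hstab : stabM t ≤ K := by
    set L := K ⊓ stabM t with hL
    have horb : t ⊆ orbFin L x := fun c hc => by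
      obtain ⟨g, hg, rfl⟩ := htr x c
      exact mem_orbFin.2 ⟨g, ⟨hg, mem_stabM_iff.2 ⟨hK hg, hin g hg hc⟩⟩, rfl⟩
    have hfL : Nat.card (fixPt K x) ≤ Nat.card (fixPt L x) :=
      Subgroup.card_le_of_le fun g hg =>
        ⟨⟨hg.1, mem_stabM_iff.2 ⟨hK hg.1, hinvt g hg⟩⟩, hg.2⟩
    have h1 := card_orbFin_mul L x
    have h2 := Finset.card_le_card horb
    rw [htc] at h2
    have h3 := Nat.mul_le_mul h2 (hc1 ▸ hfL)
    rw [← h1] at h3
    have h4 : Nat.card (stabM t) ≤ 24 * 960 := by
      refine (card_stab_small t fun M hM hfix => card_fix_four hM htc hfix).trans ?_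
      rw [htc]; rfl
    have e : L = stabM t := Subgroup.eq_of_le_of_card_ge inf_le_right (by omega)
    exact e ▸ inf_le_left
  -- every image of the tetrad is a tetrad of its sextet
  have hmem : ∀ g ∈ K, g • t ∈ sextetOf t := by
    intro g hg
    by_cases hw : g x ∈ t
    · rw [hin g hg hw]; exact self_mem_sextetOf
    have hwT : g x ∈ g • t := by
      rw [← Equiv.Perm.smul_def, Finset.smul_mem_smul_finset_iff]; exact hxt
    have hpres' : ∀ m ∈ M24, m • t = t → m (g x) = g x → m • (g • t) = g • t :=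
      fun m hm h1 h2 => hpres g hg m (hstab (mem_stabM_iff.2 ⟨hm, h1⟩)) h2
    have hdisj : ∀ a ∈ t, a ∉ g • t := by
      intro a ha haT
      have hall : t ⊆ g • t := fun b hb => by
        obtain ⟨m, hm, hms⟩ := exists_map_swap (S := insert (g x) t)
          (by rw [Finset.card_insert_of_notMem hw, htc]) a b
        have hmw : m (g x) = g x := by
          rw [hms _ (Finset.mem_insert_self _ _), Equiv.swap_apply_of_ne_of_ne]
          · rintro rfl; exact hw ha
          · rintro rfl; exact hw hb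
        have hmt : m • t = t := smul_eq_of_forall_mem fun q hq => by
          rw [hms q (Finset.mem_insert_of_mem hq)]
          by_cases h1 : q = a
          · subst h1; rw [Equiv.swap_apply_left]; exact hb
          by_cases h2 : q = b
          · subst h2; rw [Equiv.swap_apply_right]; exact ha
          rw [Equiv.swap_apply_of_ne_of_ne h1 h2]; exact hq
        have := apply_mem_of_smul_eq (hpres' m hm hmt hmw) haT
        rwa [hms a (Finset.mem_insert_of_mem ha), Equiv.swap_apply_left] at this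
      have e := Finset.eq_of_subset_of_card_le hall (by rw [Finset.card_smul_finset])
      exact hw (e.symm ▸ hwT)
    obtain ⟨o, ho, hto⟩ := exists_octad_superset (s := insert (g x) t)
      (by rw [Finset.card_insert_of_notMem hw, htc])
    have hto' : t ⊆ o := fun q hq => hto (Finset.mem_insert_of_mem hq)
    have hsubO : g • t ⊆ o \ t := by
      intro z hz
      refine Finset.mem_sdiff.2 ⟨?_, fun hzt => hdisj z hzt hz⟩
      by_contra hzo
      have hall : oᶜ ⊆ g • t := fun q hq => by
        obtain ⟨m, hm, rfl⟩ := octPointFix_trans ho hzo (Finset.mem_compl.1 hq)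
        have hfix : ∀ u ∈ o, m u = u := fun u hu => (mem_fixingSubgroup_iff _).1 hm.2 u hu
        refine apply_mem_of_smul_eq (hpres' m hm.1 (smul_eq_of_forall_mem fun u hu => ?_)
          (hfix _ (hto (Finset.mem_insert_self _ _)))) hz
        rw [hfix u (hto' hu)]; exact hu
      have := Finset.card_le_card hall
      rw [Finset.card_compl, Finset.card_smul_finset, htc, ho.2,
        show Fintype.card GolayPt = 24 from rfl] at this
      omega
    have e : g • t = o \ t := Finset.eq_of_subset_of_card_le hsubO (by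
      rw [Finset.card_sdiff_of_subset hto', Finset.card_smul_finset, htc, ho.2])
    exact mem_sextetOf.2 (Or.inr ⟨o, ho, hto', e.symm⟩)
  refine ⟨sextetOf t, sextetOf_mem_sextets htc, Subgroup.eq_of_le_of_card_ge
    (fun g hg => mem_stabM_iff.2 ⟨hK hg, smul_sextetOf_eq (hK hg) htc (hmem g hg)⟩) ?_⟩
  rw [card_stab_sextet' (sextetOf_mem_sextets htc), hcard]

/-- The case of a second fixed point. -/
theorem not_1771_one {K : Subgroup (Equiv.Perm GolayPt)} (hK : K ≤ M24)
    (hcard : Nat.card K = 138240) (htr : ∀ a b, ∃ g ∈ K, g a = b) {x y : GolayPt}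
    {A B O : Finset GolayPt} (h : Parts23 (fixPt K x) x y A B O)
    (hy : ∀ g ∈ fixPt K x, g y = y) : False := by
  classical
  have hK1 : ∀ c, Nat.card (fixPt K c) = 5760 := fun c => by
    have := card_transitive htr c
    rw [hcard] at this
    omega
  set K₁ := fixPt K x with hK₁
  have hle1 : K₁ ≤ fixPt M24 x := fun g hg => ⟨hK hg.1, hg.2⟩
  obtain ⟨c, hc⟩ : ∃ c, c ∉ O := by
    by_contra! hall
    have := h.hO.2
    rw [Finset.eq_univ_iff_forall.2 hall] at this
    exact absurd this (by decide)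
  set V := orbFin K₁ c with hV
  have hcV : c ∈ V := self_mem_orbFin K₁ c
  have hCV : Oᶜ ⊆ V := (h.tC.subset_or_disjoint c).resolve_right fun hd =>
    Finset.disjoint_left.1 hd (Finset.mem_compl.2 hc) hcV
  have hxy_not : x ∉ V ∧ y ∉ V := by
    constructor <;> intro hm
    · exact h.x_notMem_orb hle1 (fun e => hc (by rw [e]; exact h.x_mem)) hm
    · obtain ⟨g, hg, e⟩ := mem_orbFin.1 hm
      exact hc (g.injective (e.trans (hy g hg).symm) ▸ h.y_mem)
  have hsplit : V = (V ∩ A) ∪ (V ∩ B) ∪ Oᶜ := by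
    ext w
    simp only [Finset.mem_union, Finset.mem_inter, Finset.mem_compl]
    constructor
    · intro hw
      by_cases hO : w ∈ O
      · rcases h.mem_O.1 hO with rfl | rfl | e | e
        · exact absurd hw hxy_not.1
        · exact absurd hw hxy_not.2
        · exact Or.inl (Or.inl ⟨hw, e⟩)
        · exact Or.inl (Or.inr ⟨hw, e⟩)
      · exact Or.inr hO
    · rintro ((hw | hw) | hw)
      exacts [hw.1, hw.1, hCV (Finset.mem_compl.2 hw)]
  have hVc : V.card = (V ∩ A).card + (V ∩ B).card + 16 := by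
    conv_lhs => rw [hsplit]
    rw [Finset.card_union_of_disjoint, Finset.card_union_of_disjoint, Finset.card_compl, h.hO.2]
    · rfl
    · exact h.hAB.mono Finset.inter_subset_right Finset.inter_subset_right
    · rw [Finset.disjoint_left]
      intro w hw
      simp only [Finset.mem_union, Finset.mem_inter] at hw
      rw [Finset.mem_compl, not_not, h.mem_O]
      tauto
  have hdvd := dvd_of_orbFin K₁ c
  rw [hK1 x, ← hV, hVc] at hdvd
  have hgx : ∀ g ∈ K₁, g x = x := fun g hg => hg.2
  -- the parts outside the orbit are preserved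
  have hpres : ∀ P : Finset GolayPt, (∀ w, w ∉ V → w ≠ x → w ≠ y → w ∈ P) → x ∉ P → y ∉ P →
      Disjoint P V → ∀ g ∈ K₁, g • P = P := by
    intro P hP hxP hyP hd g hg
    refine smul_eq_of_forall_mem fun w hw => hP _ (fun hV' => ?_) (fun e => ?_) (fun e => ?_)
    · have := apply_mem_orbFin (K₁.inv_mem hg) hV'
      rw [Equiv.Perm.coe_inv, Equiv.symm_apply_apply] at this
      exact Finset.disjoint_left.1 hd hw this
    · exact hxP (g.injective (e.trans (hgx g hg).symm) ▸ hw)
    · exact hyP (g.injective (e.trans (hy g hg).symm) ▸ hw)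
  have hbound : ∀ (P : Finset GolayPt) (m : ℕ), (∀ g ∈ K₁, g • P = P) →
      (∀ L : Subgroup (Equiv.Perm GolayPt), L ≤ M24 →
        (∀ g ∈ L, ∀ u ∈ insert x (insert y P), g u = u) → Nat.card L ≤ m) →
      Nat.card K₁ ≤ P.card.factorial * m := fun P m hP hm =>
    card_le_of_preserves hP (hm _ (fun g hg => hK hg.1.1) fun g hg u hu => by
      rcases Finset.mem_insert.1 hu with rfl | hu
      · exact hg.1.2
      rcases Finset.mem_insert.1 hu with rfl | hu
      · exact hy g hg.1
      · exact inf_fixing_apply hg hu)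
  have hout : ∀ {P Q : Finset GolayPt}, A ∪ B ⊆ P ∪ Q → Q ⊆ V →
      ∀ w, w ∉ V → w ≠ x → w ≠ y → w ∈ P := by
    intro P Q hPQ hQ w hwV hwx hwy
    have hwO : w ∈ O := by
      by_contra hwO
      exact hwV (hCV (Finset.mem_compl.2 hwO))
    have hw : w ∈ A ∪ B := by
      rw [h.mem_O] at hwO
      rw [Finset.mem_union]; tauto
    exact (Finset.mem_union.1 (hPQ hw)).resolve_right fun e => hwV (hQ e)
  have hK16 : ∀ g ∈ K₁, g • O = O := by
    rcases card_inter_cases h.tA c with ⟨eA, hA⟩ | ⟨eA, hA⟩ <;>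
      rcases card_inter_cases h.tB c with ⟨eB, hB⟩ | ⟨eB, hB⟩ <;>
        rw [← hV] at eA eB <;> rw [eA, eB] at hdvd <;> (try simp only [h.cA, h.cB] at hdvd) <;>
          rw [← hV] at hA hB
    · norm_num at hdvd
    · -- `B` is left over
      exfalso
      have := hbound B 16 (hpres B (hout (by rw [Finset.union_comm]) hA) h.hxB h.hyB hB)
        fun L hL hfix => card_fix_six hL (T := insert x (insert y B)) ?_ hfix
      · rw [hK1 x, h.cB] at this
        norm_num [Nat.factorial] at this
      · rw [Finset.card_insert_of_notMem (by simp [h.hxy, h.hxB]),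
          Finset.card_insert_of_notMem h.hyB, h.cB]
    · -- `A` is left over
      exfalso
      have := hbound A 960 (hpres A (hout le_rfl hB) h.hxA h.hyA hA)
        fun L hL hfix => card_fix_four hL (T := insert x (insert y A)) ?_ hfix
      · rw [hK1 x, h.cA] at this
        norm_num [Nat.factorial] at this
      · rw [Finset.card_insert_of_notMem (by simp [h.hxy, h.hxA]),
          Finset.card_insert_of_notMem h.hyA, h.cA]
    · intro g hg
      refine smul_eq_of_forall_mem fun w hw => ?_
      by_contra hgw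
      have hgwV : g w ∈ V := hCV (Finset.mem_compl.2 hgw)
      have := apply_mem_orbFin (K₁.inv_mem hg) hgwV
      rw [Equiv.Perm.coe_inv, Equiv.symm_apply_apply] at this
      rcases h.mem_O.1 hw with rfl | rfl | e | e
      · exact hxy_not.1 this
      · exact hxy_not.2 this
      · exact Finset.disjoint_left.1 hA e this
      · exact Finset.disjoint_left.1 hB e this
  have hK₁eq : fixPt (fixPt (stabM O) x) y ≤ K₁ := by
    have hle : K₁ ≤ fixPt (fixPt (stabM O) x) y := fun g hg =>
      ⟨⟨mem_stabM_iff.2 ⟨hK hg.1, hK16 g hg⟩, hg.2⟩, hy g hg⟩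
    refine (Subgroup.eq_of_le_of_card_ge hle ?_).symm.le
    rw [card_fixPt_two_stab_octad h.hO h.x_mem h.y_mem h.hxy, hK1 x]
  -- the partner of a third point of the octad
  obtain ⟨z, hzO, hz⟩ := Finset.exists_mem_notMem_of_card_lt_card
    (show ({x, y} : Finset GolayPt).card < O.card by rw [Finset.card_pair h.hxy, h.hO.2]; norm_num)
  simp only [Finset.mem_insert, Finset.mem_singleton, not_or] at hz
  obtain ⟨g, hg, hgz⟩ := htr x z
  set z' := g y with hz'
  have hzz' : z' ≠ z := fun e => h.hxy (g.injective (hgz.trans e.symm))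
  have hpart : ∀ m ∈ K, m z = z → m z' = z' := by
    intro m hm hmz
    have := hy (g⁻¹ * m * g)
      ⟨K.mul_mem (K.mul_mem (K.inv_mem hg) hm) hg, conj_apply_smul (by rw [hgz]; exact hmz)⟩
    simp only [Equiv.Perm.mul_apply, Equiv.Perm.coe_inv, Equiv.symm_apply_eq] at this
    exact this
  have hcand : ∀ m ∈ M24, m • O = O → m x = x → m y = y → m ∈ K := fun m hm h1 h2 h3 =>
    (hK₁eq ⟨⟨mem_stabM_iff.2 ⟨hm, h1⟩, h2⟩, h3⟩).1
  have hz'O : z' ∈ O := by
    by_contra hn
    obtain ⟨w, hwO, hwz⟩ : ∃ w ∈ Oᶜ, w ≠ z' :=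
      Finset.exists_mem_ne (by rw [Finset.card_compl, h.hO.2]; decide) z'
    obtain ⟨m, hm, hmw⟩ := octPointFix_trans h.hO hn (Finset.mem_compl.1 hwO)
    have hfix : ∀ u ∈ O, m u = u := fun u hu => (mem_fixingSubgroup_iff _).1 hm.2 u hu
    have := hpart m (hcand m hm.1 (octPointFix_smul hm) (hfix x h.x_mem) (hfix y h.y_mem))
      (hfix z hzO)
    exact hwz (hmw.symm.trans this)
  have hz'xy : z' = x ∨ z' = y := by
    by_contra hn
    rw [not_or] at hn
    obtain ⟨w, hwO, hw⟩ := Finset.exists_mem_notMem_of_card_lt_card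
      (show ({x, y, z, z'} : Finset GolayPt).card < O.card from
        lt_of_le_of_lt Finset.card_le_four (by rw [h.hO.2]; norm_num))
    simp only [Finset.mem_insert, Finset.mem_singleton, not_or] at hw
    obtain ⟨m, hm, hmO, hmfix, hmz⟩ := exists_fix_move_octad h.hO (T := {x, y, z})
      (by simp [Finset.insert_subset_iff, h.x_mem, h.y_mem, hzO])
      (Finset.card_le_three.trans (by norm_num)) hz'O hwO (by simp [hn.1, hn.2, hzz'])
      (by simp [hw.1, hw.2.1, hw.2.2.1])
    exact hw.2.2.2 (hmz.symm.trans (hpart m (hcand m hm hmO (hmfix x (by simp))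
      (hmfix y (by simp))) (hmfix z (by simp))))
  -- then the stabiliser of `x` fixes `z`
  have hle : fixPt K z ≤ K₁ := by
    rcases hz'xy with e | e
    · exact fun m hm => ⟨hm.1, e ▸ hpart m hm.1 hm.2⟩
    · have hxy' : fixPt K x = fixPt K y :=
        Subgroup.eq_of_le_of_card_ge (fun m hm => ⟨hm.1, hy m hm⟩) (by rw [hK1, hK1])
      exact fun m hm => hxy'.ge (⟨hm.1, e ▸ hpart m hm.1 hm.2⟩ : m ∈ fixPt K y)
  have heq : fixPt K z = K₁ := Subgroup.eq_of_le_of_card_ge hle (by rw [hK1, hK1])
  obtain ⟨w, hwO, hw⟩ := Finset.exists_mem_notMem_of_card_lt_card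
    (show ({x, y, z} : Finset GolayPt).card < O.card from
      lt_of_le_of_lt Finset.card_le_three (by rw [h.hO.2]; norm_num))
  simp only [Finset.mem_insert, Finset.mem_singleton, not_or] at hw
  obtain ⟨m, hm, hmO, hmfix, hmz⟩ := exists_fix_move_octad h.hO (T := {x, y})
    (by simp [Finset.insert_subset_iff, h.x_mem, h.y_mem])
    (Finset.card_le_two.trans (by norm_num)) hzO hwO (by simp [hz.1, hz.2])
    (by simp [hw.1, hw.2.1])
  have hmK : m ∈ fixPt K z :=
    heq.symm ▸ hK₁eq ⟨⟨mem_stabM_iff.2 ⟨hm, hmO⟩, hmfix x (by simp)⟩, hmfix y (by simp)⟩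
  exact hw.2.2 (hmz.symm.trans hmK.2)

/-- Subgroups of index 1771. -/
theorem classify_1771 {K : Subgroup (Equiv.Perm GolayPt)} (hK : K ≤ M24)
    (hcard : Nat.card K = 138240) : ∃ S ∈ sextets, K = stabM S := by
  rcases octad_or_transitive hK (hcard ▸ by norm_num) with ⟨O, hO, hle⟩ | htr
  · have := Subgroup.card_dvd_of_le hle
    rw [hcard, card_stab_octad hO] at this
    norm_num at this
  set x := i2p 0
  have hc1 : Nat.card (fixPt K x) = 5760 := by
    have := card_transitive htr x
    rw [hcard] at this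
    omega
  have hle1 : fixPt K x ≤ fixPt M24 x := fun g hg => ⟨hK hg.1, hg.2⟩
  obtain ⟨y, A, B, O, h⟩ := exists_parts23 hle1 (hc1 ▸ by norm_num)
  have hdvd := dvd_of_orbFin (fixPt K x) y
  rw [hc1] at hdvd
  rcases h.orb_cases hle1 with e | e | e | ⟨e, -⟩ | e | e | ⟨e, -⟩ | e
  · exact (not_1771_one hK hcard htr h (forall_fixed_of_orbFin e)).elim
  · exact classify_1771_three hK hcard htr e (h.x_notMem_orb hle1 h.hxy.symm)
      fun g hg => smul_orbFin hg
  · have := (h.small_bound hle1).2 e; omega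
  all_goals rw [e] at hdvd; norm_num at hdvd

theorem fixed_modEq {g : Equiv.Perm GolayPt} {p : ℕ} (hp : p.Prime) (hg : orderOf g = p)
    {U : Finset GolayPt} (hU : g • U = U) :
    (U ∩ fixedPts g).card ≡ U.card [MOD p] := by
  classical
  haveI : Fact p.Prime := ⟨hp⟩
  have hmem : ∀ w, g w ∈ U ↔ w ∈ U :=
    fun w => ⟨apply_eq_of_smul_mem hU, apply_mem_of_smul_eq hU⟩
  have h1 : (g.subtypePerm hmem) ^ p ^ 1 = 1 := by
    rw [pow_one, Equiv.Perm.subtypePerm_pow]
    ext w
    simp [← hg, pow_orderOf_eq_one]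
  have h2 := Equiv.Perm.card_compl_support_modEq h1
  rw [Fintype.card_coe] at h2
  have e : ((g.subtypePerm hmem).supportᶜ).map (Function.Embedding.subtype _) =
      U ∩ fixedPts g := by
    ext w
    simp only [Finset.mem_map, Finset.mem_compl, Equiv.Perm.mem_support, not_not,
      Finset.mem_inter, mem_fixedPts, Function.Embedding.subtype_apply, Subtype.ext_iff,
      Equiv.Perm.subtypePerm_apply]
    exact ⟨fun ⟨a, ha, e⟩ => e ▸ ⟨a.2, ha⟩, fun ⟨h1, h2⟩ => ⟨⟨w, h1⟩, h2, rfl⟩⟩
  rw [← e, Finset.card_map]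
  exact h2

/-- Subgroups of index 276. -/
theorem classify_276 {K : Subgroup (Equiv.Perm GolayPt)} (hK : K ≤ M24)
    (hcard : Nat.card K = 887040) : ∃ s : Finset GolayPt, s.card = 2 ∧ K = stabM s := by
  classical
  obtain ⟨h, hh, hord⟩ := exists_orderOf_eq K (p := 11) (by norm_num) (by rw [hcard]; norm_num)
  obtain ⟨p, q, hpq, hfix⟩ := Finset.card_eq_two.1 (fixedPts_eleven (hK hh) hord)
  have hfp : h p = p := mem_fixedPts.1 (by rw [hfix]; simp)
  have hfq : h q = q := mem_fixedPts.1 (by rw [hfix]; simp)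
  have hmod : ∀ {L : Subgroup (Equiv.Perm GolayPt)}, h ∈ L → ∀ c,
      (orbFin L c ∩ fixedPts h).card % 11 = (orbFin L c).card % 11 :=
    fun hL c => fixed_modEq (by norm_num) hord (smul_orbFin hL)
  set U := orbFin K p with hU
  have hUm := hmod hh p
  rw [← hU] at hUm
  have hfle : (U ∩ fixedPts h).card ≤ 2 := by
    rw [← Finset.card_pair hpq, ← hfix]
    exact Finset.card_le_card Finset.inter_subset_right
  have hfge : 1 ≤ (U ∩ fixedPts h).card :=
    Finset.card_pos.2 ⟨p, Finset.mem_inter.2 ⟨self_mem_orbFin K p, mem_fixedPts.2 hfp⟩⟩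
  have hU24 : U.card ≤ 24 := by
    have := Finset.card_le_univ U
    rwa [show Fintype.card GolayPt = 24 from rfl] at this
  have hdvd := dvd_of_orbFin K p
  rw [hcard, ← hU] at hdvd
  have horb := card_orbFin_mul K p
  rw [hcard, ← hU] at horb
  have hcases : U.card = 1 ∨ U.card = 2 ∨ U.card = 12 ∨ U.card = 13 ∨ U.card = 23 ∨
      U.card = 24 := by omega
  rcases hcases with e | e | e | e | e | e
  · -- a fixed point
    have hle : K ≤ fixPt M24 p := fun g hg => ⟨hK hg, forall_fixed_of_orbFin e g hg⟩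
    have := Subgroup.card_dvd_of_le hle
    rw [hcard, CfsgLib.Mathieu.card_fixPt] at this
    norm_num at this
  · refine ⟨U, e, Subgroup.eq_of_le_of_card_ge
      (fun g hg => mem_stabM_iff.2 ⟨hK hg, smul_orbFin hg⟩) ?_⟩
    rw [hcard]
    refine (card_stab_small U fun L hL hf => card_fix_two hL e hf).trans ?_
    rw [e]; rfl
  · exfalso
    obtain ⟨g, hg, hgord⟩ := exists_orderOf_eq K (p := 7) (by norm_num) (by rw [hcard]; norm_num)
    have h1 := fixed_modEq (by norm_num) hgord (smul_orbFin (p := p) hg)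
    have hUc : g • Uᶜ = Uᶜ := by rw [smul_compl', smul_orbFin hg]
    have h2 := fixed_modEq (by norm_num) hgord hUc
    rw [← hU, e] at h1
    rw [Finset.card_compl, e, show Fintype.card GolayPt = 24 from rfl] at h2
    have h3 : (U ∩ fixedPts g).card + (Uᶜ ∩ fixedPts g).card = (fixedPts g).card := by
      rw [← Finset.card_union_of_disjoint
        (disjoint_compl_right.mono Finset.inter_subset_left Finset.inter_subset_left),
        ← Finset.union_inter_distrib_right, Finset.union_compl, Finset.univ_inter]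
    unfold Nat.ModEq at h1 h2
    rw [eq_one_of_nine_fixed (hK hg) (by omega), orderOf_one] at hgord
    norm_num at hgord
  · rw [e] at hdvd; norm_num at hdvd
  · rw [e] at hdvd; norm_num at hdvd
  · exfalso
    rw [e] at horb
    set K₁ := fixPt K p with hK₁
    have hh1 : h ∈ K₁ := ⟨hh, hfp⟩
    set V := orbFin K₁ q with hV
    have hVm := hmod hh1 q
    rw [← hV] at hVm
    have hVf : V ∩ fixedPts h = {q} := by
      refine Finset.Subset.antisymm (fun w hw => ?_)
        (Finset.singleton_subset_iff.2 (Finset.mem_inter.2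
          ⟨self_mem_orbFin K₁ q, mem_fixedPts.2 hfq⟩))
      obtain ⟨hwV, hwf⟩ := Finset.mem_inter.1 hw
      rw [hfix, Finset.mem_insert] at hwf
      rcases hwf with rfl | hwf
      · obtain ⟨g, hg, e'⟩ := mem_orbFin.1 hwV
        exact absurd (g.injective (e'.trans (show g w = w from hg.2).symm)) hpq.symm
      · exact hwf
    rw [hVf, Finset.card_singleton] at hVm
    have hV24 : V.card ≤ 24 := by
      have := Finset.card_le_univ V
      rwa [show Fintype.card GolayPt = 24 from rfl] at this
    have hd := dvd_of_orbFin K₁ q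
    rw [← hV, show Nat.card K₁ = 36960 by omega] at hd
    have hVorb := card_orbFin_mul K₁ q
    rw [← hV, show Nat.card K₁ = 36960 by omega] at hVorb
    have hV' : V.card = 1 ∨ V.card = 12 ∨ V.card = 23 := by omega
    rcases hV' with eV | eV | eV
    · obtain ⟨N, hN, -, hN''⟩ := sylow_seven_count hpq
        (show K₁ ≤ fixPt (fixPt M24 p) q from
          fun g hg => ⟨⟨hK hg.1, hg.2⟩, forall_fixed_of_orbFin eV g hg⟩)
        (by rw [show Nat.card K₁ = 36960 by omega]; norm_num)
      rw [show Nat.card K₁ = 36960 by omega] at hN''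
      rcases hN with rfl | rfl <;> omega
    · rw [eV] at hVorb
      obtain ⟨N, hN, hN', hN''⟩ := sylow_seven_count hpq
        (show fixPt K₁ q ≤ fixPt (fixPt M24 p) q from fun g hg => ⟨⟨hK hg.1.1, hg.1.2⟩, hg.2⟩)
        (by rw [show Nat.card (fixPt K₁ q) = 3080 by omega]; norm_num)
      rw [show Nat.card (fixPt K₁ q) = 3080 by omega] at hN' hN''
      rcases hN with rfl | rfl
      · omega
      · norm_num at hN'
    · rw [eV] at hd; norm_num at hd

/-- No subgroup of `M24` has index 253. -/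
theorem not_card_967680 {K : Subgroup (Equiv.Perm GolayPt)} (hK : K ≤ M24)
    (hcard : Nat.card K = 967680) :
    (∃ O ∈ octads, stabM O ≤ K) ∨ ∃ Y : Finset GolayPt, Y.card = 3 ∧ stabM Y ≤ K := by
  classical
  rcases octad_or_transitive hK (hcard ▸ by norm_num) with ⟨O, hO, hle⟩ | htr
  · have := Subgroup.card_le_of_le hle
    rw [hcard, card_stab_octad hO] at this
    omega
  set x := i2p 0
  have hc1 : Nat.card (fixPt K x) = 40320 := by
    have := card_transitive htr x
    rw [hcard] at this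
    omega
  have hpres : ∀ {S : Finset GolayPt}, (∀ m ∈ fixPt K x, m • S = S) →
      ∀ g ∈ K, ∀ m ∈ K, m (g x) = g x → m • (g • S) = g • S := by
    intro S hS g hg m hm hmx
    have := hS (g⁻¹ * m * g) ⟨K.mul_mem (K.mul_mem (K.inv_mem hg) hm) hg, conj_apply_smul hmx⟩
    rwa [mul_smul, mul_smul, inv_smul_eq_iff] at this
  rcases classify_253 (fun g hg => ⟨hK hg.1, hg.2⟩ : fixPt K x ≤ fixPt M24 x) hc1 with
    ⟨s, hs, hxs, e⟩ | ⟨O, hO, hxO, e⟩
  · right
    refine ⟨insert x s, by rw [Finset.card_insert_of_notMem hxs, hs], ?_⟩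
    set Y := insert x s with hY
    have hYc : Y.card = 3 := by rw [hY, Finset.card_insert_of_notMem hxs, hs]
    have hinvs : ∀ m ∈ fixPt K x, m • s = s := fun m hm => smul_eq_self (e ▸ hm).1
    have hinvY : ∀ m ∈ fixPt K x, m • Y = Y := fun m hm => by
      rw [hY, Finset.smul_finset_insert, hinvs m hm, Equiv.Perm.smul_def,
        show m x = x from hm.2]
    have hfixK : ∀ m ∈ M24, (∀ w ∈ Y, m w = w) → m ∈ K := fun m hm hw => by
      have hin : m ∈ fixPt (stabM s) x := ⟨mem_stabM_iff.2 ⟨hm, smul_eq_of_forall_mem fun w h => by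
        rw [hw w (Finset.mem_insert_of_mem h)]; exact h⟩, hw x (Finset.mem_insert_self x s)⟩
      rw [← e] at hin
      exact hin.1
    have hin : ∀ g ∈ K, g x ∈ Y → g • Y = Y := by
      intro g hg hgx
      refine Finset.eq_of_subset_of_card_le (fun z hz => ?_) (by rw [Finset.card_smul_finset])
      by_contra hzY
      have hsubT : Yᶜ ⊆ g • Y := fun w hw => by
        obtain ⟨m, hm, hmfix, rfl⟩ := exists_fix_move (by omega) hzY (Finset.mem_compl.1 hw)
        exact apply_mem_of_smul_eq (hpres hinvY g hg m (hfixK m hm hmfix) (hmfix _ hgx)) hz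
      have := Finset.card_le_card hsubT
      rw [Finset.card_compl, Finset.card_smul_finset, hYc,
        show Fintype.card GolayPt = 24 from rfl] at this
      omega
    set L := K ⊓ stabM Y with hL
    have horb : Y ⊆ orbFin L x := fun c hc => by
      obtain ⟨g, hg, rfl⟩ := htr x c
      exact mem_orbFin.2 ⟨g, ⟨hg, mem_stabM_iff.2 ⟨hK hg, hin g hg hc⟩⟩, rfl⟩
    have hfL : Nat.card (fixPt K x) ≤ Nat.card (fixPt L x) :=
      Subgroup.card_le_of_le fun g hg =>
        ⟨⟨hg.1, mem_stabM_iff.2 ⟨hK hg.1, hinvY g hg⟩⟩, hg.2⟩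
    have h1 := card_orbFin_mul L x
    have h2 := Finset.card_le_card horb
    rw [hYc] at h2
    have h3 := Nat.mul_le_mul h2 (hc1 ▸ hfL)
    rw [← h1] at h3
    have h4 : Nat.card (stabM Y) ≤ 6 * 20160 := by
      refine (card_stab_small Y fun M hM hfix => card_fix_three hM hYc hfix).trans ?_
      rw [hYc]; rfl
    have eL : L = stabM Y := Subgroup.eq_of_le_of_card_ge inf_le_right (by omega)
    exact eL ▸ inf_le_left
  · left
    refine ⟨O, hO, ?_⟩
    have hinvO : ∀ m ∈ fixPt K x, m • O = O := fun m hm => smul_eq_self (e ▸ hm).1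
    have hEK : ∀ m ∈ octPointFix O, m ∈ K := fun m hm => by
      have hin : m ∈ fixPt (stabM O) x := ⟨mem_stabM_iff.2 ⟨hm.1, octPointFix_smul hm⟩,
        (mem_fixingSubgroup_iff _).1 hm.2 x hxO⟩
      rw [← e] at hin
      exact hin.1
    have hin : ∀ g ∈ K, g x ∈ O → g • O = O := fun g hg hgx =>
      octad_eq_of_invariant hO (smul_mem_octads (hK hg) hO) fun m hm =>
        hpres hinvO g hg m (hEK m hm) ((mem_fixingSubgroup_iff _).1 hm.2 _ hgx)
    set L := K ⊓ stabM O with hL
    have horb : O ⊆ orbFin L x := fun c hc => by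
      obtain ⟨g, hg, rfl⟩ := htr x c
      exact mem_orbFin.2 ⟨g, ⟨hg, mem_stabM_iff.2 ⟨hK hg, hin g hg hc⟩⟩, rfl⟩
    have hfL : Nat.card (fixPt K x) ≤ Nat.card (fixPt L x) :=
      Subgroup.card_le_of_le fun g hg =>
        ⟨⟨hg.1, mem_stabM_iff.2 ⟨hK hg.1, hinvO g hg⟩⟩, hg.2⟩
    have h1 := card_orbFin_mul L x
    have h2 := Finset.card_le_card horb
    rw [hO.2] at h2
    have h3 := Nat.mul_le_mul h2 (hc1 ▸ hfL)
    rw [← h1] at h3
    have eL : L = stabM O :=
      Subgroup.eq_of_le_of_card_ge inf_le_right (by rw [card_stab_octad hO]; omega)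
    exact eL ▸ inf_le_left

end CfsgLib.M24Orbits
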