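import Cfsg.Agent.M24Orbits.Transitive

/-!
Orbit decompositions in the shape of three or four orbits, and the level functions used for
maximality.
-/

set_option autoImplicit false

open scoped Pointwise

namespace CfsgLib.M24Orbits

open Cfsg CfsgLib.Golay CfsgLib.Mathieu

variable {A X : Type*} [MulAction (Equiv.Perm GolayPt) A] [MulAction (Equiv.Perm GolayPt) X]
  {C : Set X} {enc : X → List ℕ}
  {act : List ℕ → List ℕ → List ℕ} {gens reps : List (List ℕ)} {xs : List X}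
  {cert : List (List Entry)}

theorem orbit_split3 {S₀ : A} {γ : Type*} (v : X → γ)
    (h : Setup (stabM S₀) C enc act gens xs reps cert)
    (hv : ∀ g ∈ stabM S₀, ∀ x ∈ C, v (g • x) = v x) (hsep : (xs.map v).Nodup)
    (hC : ∀ g ∈ M24, ∀ x ∈ C, g • x ∈ C) {k : Equiv.Perm GolayPt} (hk : k ∈ M24)
    (hl : xs.length = 3) {n₁ n₂ n₃ : ℕ}
    (hn : (List.range 3).map (certCount cert) = [n₁, n₂, n₃]) :
    ∃ X₁ ∈ C, ∃ X₂ ∈ C, ∃ X₃ ∈ C,
      (MulAction.orbit ↥(MulAction.stabilizer M24 (k • S₀)) X₁).ncard = n₁ ∧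
      (MulAction.orbit ↥(MulAction.stabilizer M24 (k • S₀)) X₂).ncard = n₂ ∧
      (MulAction.orbit ↥(MulAction.stabilizer M24 (k • S₀)) X₃).ncard = n₃ ∧
      C = MulAction.orbit ↥(MulAction.stabilizer M24 (k • S₀)) X₁ ∪
        MulAction.orbit ↥(MulAction.stabilizer M24 (k • S₀)) X₂ ∪
        MulAction.orbit ↥(MulAction.stabilizer M24 (k • S₀)) X₃ := by
  obtain ⟨h1, h2⟩ := orbit_data v h hv hsep hC hk
  obtain ⟨a0, b0, c0⟩ := h1 0 (by omega)
  obtain ⟨a1, b1, c1⟩ := h1 1 (by omega)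
  obtain ⟨a2, b2, c2⟩ := h1 2 (by omega)
  refine ⟨_, a0, _, a1, _, a2, c0.trans ?_, c1.trans ?_, c2.trans ?_, Set.ext fun y => ⟨?_, ?_⟩⟩
  · rw [certCount_of_map hn (by norm_num)]; rfl
  · rw [certCount_of_map hn (by norm_num)]; rfl
  · rw [certCount_of_map hn (by norm_num)]; rfl
  · intro hy
    obtain ⟨i, hi, hm⟩ := h2 y hy
    have h3 : i = 0 ∨ i = 1 ∨ i = 2 := by omega
    rcases h3 with rfl | rfl | rfl
    · exact Or.inl (Or.inl hm)
    · exact Or.inl (Or.inr hm)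
    · exact Or.inr hm
  · rintro ((hm | hm) | hm)
    exacts [b0 hm, b1 hm, b2 hm]

theorem orbit_split4 {S₀ : A} {γ : Type*} (v : X → γ)
    (h : Setup (stabM S₀) C enc act gens xs reps cert)
    (hv : ∀ g ∈ stabM S₀, ∀ x ∈ C, v (g • x) = v x) (hsep : (xs.map v).Nodup)
    (hC : ∀ g ∈ M24, ∀ x ∈ C, g • x ∈ C) {k : Equiv.Perm GolayPt} (hk : k ∈ M24)
    (hl : xs.length = 4) {n₁ n₂ n₃ n₄ : ℕ}
    (hn : (List.range 4).map (certCount cert) = [n₁, n₂, n₃, n₄]) :
    ∃ X₁ ∈ C, ∃ X₂ ∈ C, ∃ X₃ ∈ C, ∃ X₄ ∈ C,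
      (MulAction.orbit ↥(MulAction.stabilizer M24 (k • S₀)) X₁).ncard = n₁ ∧
      (MulAction.orbit ↥(MulAction.stabilizer M24 (k • S₀)) X₂).ncard = n₂ ∧
      (MulAction.orbit ↥(MulAction.stabilizer M24 (k • S₀)) X₃).ncard = n₃ ∧
      (MulAction.orbit ↥(MulAction.stabilizer M24 (k • S₀)) X₄).ncard = n₄ ∧
      C = MulAction.orbit ↥(MulAction.stabilizer M24 (k • S₀)) X₁ ∪
        MulAction.orbit ↥(MulAction.stabilizer M24 (k • S₀)) X₂ ∪
        MulAction.orbit ↥(MulAction.stabilizer M24 (k • S₀)) X₃ ∪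
        MulAction.orbit ↥(MulAction.stabilizer M24 (k • S₀)) X₄ := by
  obtain ⟨h1, h2⟩ := orbit_data v h hv hsep hC hk
  obtain ⟨a0, b0, c0⟩ := h1 0 (by omega)
  obtain ⟨a1, b1, c1⟩ := h1 1 (by omega)
  obtain ⟨a2, b2, c2⟩ := h1 2 (by omega)
  obtain ⟨a3, b3, c3⟩ := h1 3 (by omega)
  refine ⟨_, a0, _, a1, _, a2, _, a3, c0.trans ?_, c1.trans ?_, c2.trans ?_, c3.trans ?_,
    Set.ext fun y => ⟨?_, ?_⟩⟩
  · rw [certCount_of_map hn (by norm_num)]; rfl
  · rw [certCount_of_map hn (by norm_num)]; rfl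
  · rw [certCount_of_map hn (by norm_num)]; rfl
  · rw [certCount_of_map hn (by norm_num)]; rfl
  · intro hy
    obtain ⟨i, hi, hm⟩ := h2 y hy
    have h3 : i = 0 ∨ i = 1 ∨ i = 2 ∨ i = 3 := by omega
    rcases h3 with rfl | rfl | rfl | rfl
    · exact Or.inl (Or.inl (Or.inl hm))
    · exact Or.inl (Or.inl (Or.inr hm))
    · exact Or.inl (Or.inr hm)
    · exact Or.inr hm
  · rintro (((hm | hm) | hm) | hm)
    exacts [b0 hm, b1 hm, b2 hm, b3 hm]

/-- The orbits other than the fixed point. -/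
theorem orbit_rest {S₀ : X} {γ : Type*} (v : X → γ)
    (h : Setup (stabM S₀) C enc act gens xs reps cert)
    (hv : ∀ g ∈ stabM S₀, ∀ x ∈ C, v (g • x) = v x) (hsep : (xs.map v).Nodup)
    (hC : ∀ g ∈ M24, ∀ x ∈ C, g • x ∈ C) {k : Equiv.Perm GolayPt} (hk : k ∈ M24)
    (h0 : 0 < xs.length) (hxs : xs[0] = S₀) :
    MulAction.orbit ↥(MulAction.stabilizer M24 (k • S₀)) (k • xs[0]) = {k • S₀} ∧
      ∀ y ∈ C, y = k • S₀ ∨ ∃ (i : ℕ) (hi : i < xs.length), 0 < i ∧
        y ∈ MulAction.orbit ↥(MulAction.stabilizer M24 (k • S₀)) (k • xs[i]) := by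
  have e : MulAction.orbit ↥(MulAction.stabilizer M24 (k • S₀)) (k • xs[0]) = {k • S₀} := by
    rw [hxs]
    ext y
    exact ⟨fun ⟨g, e⟩ => e ▸ g.2, fun hy => hy ▸ MulAction.mem_orbit_self _⟩
  refine ⟨e, fun y hy => ?_⟩
  obtain ⟨i, hi, hm⟩ := (orbit_data v h hv hsep hC hk).2 y hy
  rcases Nat.eq_zero_or_pos i with rfl | hpos
  · rw [e] at hm; exact Or.inl hm
  · exact Or.inr ⟨i, hi, hpos, hm⟩

/-- The position of the invariant of a configuration among those of the representatives. -/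
def levelOf {γ : Type*} [DecidableEq γ] (v : X → γ) (xs : List X) (x : X) : ℕ :=
  (xs.map v).idxOf (v x)

omit [MulAction (Equiv.Perm GolayPt) A] in
theorem levelOf_eq {γ : Type*} [DecidableEq γ] (v : X → γ) {H : Subgroup (Equiv.Perm GolayPt)}
    (h : Setup H C enc act gens xs reps cert) (hv : ∀ g ∈ H, ∀ x ∈ C, v (g • x) = v x)
    (hsep : (xs.map v).Nodup) {x : X} (hx : x ∈ C) :
    levelOf v xs x < xs.length ∧
      ∀ i, ∀ hi : i < xs.length, (levelOf v xs x = i ↔ v x = v xs[i]) := by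
  obtain ⟨j, hj, g, hg, rfl⟩ := exists_rep h hx
  have hj' : j < (xs.map v).length := by simpa using hj
  have hvj : v (g • xs[j]) = v xs[j] := hv g hg _ (h.mem _ (List.getElem_mem hj))
  have hl : levelOf v xs (g • xs[j]) = j := by
    rw [levelOf, hvj, show v xs[j] = (xs.map v)[j] by simp, hsep.idxOf_getElem]
  refine ⟨by rw [hl]; exact hj, fun i hi => ?_⟩
  rw [hl, hvj]
  constructor
  · rintro rfl; rfl
  · intro e
    have hi' : i < (xs.map v).length := by simpa using hi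
    exact (hsep.getElem_inj_iff (hi := hj') (hj := hi')).1 (by simpa using e)

omit [MulAction (Equiv.Perm GolayPt) A] in
/-- Maximality of the stabiliser from an orbit certificate. -/
theorem isCoatom_of_setup {γ : Type*} [DecidableEq γ] {S₀ : X} (v : X → γ)
    (h : Setup (stabM S₀) C enc act gens xs reps cert)
    (hv : ∀ g ∈ stabM S₀, ∀ x ∈ C, v (g • x) = v x) (hsep : (xs.map v).Nodup)
    (hC : ∀ g ∈ M24, ∀ x ∈ C, g • x ∈ C) (htr : ∀ x ∈ C, ∃ g ∈ M24, g • S₀ = x)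
    (h0 : 0 < xs.length) (hxs : xs[0] = S₀) (hC1 : C.ncard ≠ 1) (sizes : List ℕ)
    (hn : (List.range xs.length).map (certCount cert) = sizes)
    (hdiv : ∀ I ∈ (Finset.range sizes.length).powerset, 0 ∈ I →
      (∑ i ∈ I, sizes.getD i 0) ∣ C.ncard →
        (∑ i ∈ I, sizes.getD i 0) = 1 ∨ (∑ i ∈ I, sizes.getD i 0) = C.ncard)
    {k : Equiv.Perm GolayPt} (hk : k ∈ M24) :
    IsCoatom (MulAction.stabilizer M24 (k • S₀)) := by
  have hlen : sizes.length = xs.length := by rw [← hn]; simp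
  have hS : S₀ ∈ C := hxs ▸ h.mem _ (List.getElem_mem h0)
  have hbase : IsCoatom (MulAction.stabilizer M24 S₀) := by
    refine isCoatom_stabilizer h.fin hS hC htr (levelOf v xs) sizes
      (fun x hx => hlen ▸ (levelOf_eq v h hv hsep hx).1)
      (((levelOf_eq v h hv hsep hS).2 0 h0).2 (by rw [hxs])) (fun i hi => ?_)
      (fun x hx y hy e => ?_) hC1 hdiv
    · have hi' : i < xs.length := hlen ▸ hi
      rw [← certCount_of_map hn hi', ← (level_eq_orbit v h hv hsep hi').2]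
      congr 1
      ext y
      exact and_congr_right fun hy => (levelOf_eq v h hv hsep hy).2 i hi'
    · obtain ⟨hl, hlx⟩ := levelOf_eq v h hv hsep hx
      exact transitive_of_eq v h hv hsep hx hy
        (((hlx _ hl).1 rfl).trans (((levelOf_eq v h hv hsep hy).2 _ hl).1 e.symm).symm)
  have e : MulAction.stabilizer M24 (k • S₀) =
      (MulAction.stabilizer M24 S₀).map (MulAut.conj (⟨k, hk⟩ : M24)).toMonoidHom :=
    MulAction.stabilizer_smul_eq_stabilizer_map_conj (⟨k, hk⟩ : M24) S₀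
  rw [e]
  exact ((MulAut.conj (⟨k, hk⟩ : M24)).mapSubgroup.isCoatom_iff _).2 hbase

end CfsgLib.M24Orbits
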